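import Cfsg.Agent.H223.EPX.Fus
import Cfsg.Agent.H129.FE.Grp
import Cfsg.Agent.H542.EPX.Cells

/-!
# S5745: two commuting fused abelian `r`-subgroups in `E₆(F)` (helper223)

* `InE6n n G` : `G` embeds into `E₆(F)` with `n ≠ 0` in `F`; `F₄(F)`, `E₆(F)`, `²E₆(q)`;
* `no_two` : `T` with a fused `P`, `|P| ≥ 16` prime to `3` and to the characteristic: no two commuting embeddings of `T` into
  `E₆(F)`;
* `no_one` : no embedding if `|P| ≥ 29`.
-/

set_option autoImplicit false
set_option linter.unusedSectionVars false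
set_option linter.style.haveILetI false

namespace Cfsg.Agent.H223.EPX

open Cfsg Cfsg.Lie Matrix Module
open Cfsg.Agent.ChevalleyStructure.E6Min Cfsg.Agent.ChevalleyStructure.E6Min.Tables
  Cfsg.Agent.ChevalleyStructure.E6Min.Basic Cfsg.Agent.ChevalleyStructure.E6Min.Adjoint
open Cfsg.Agent.H318.Four Cfsg.Agent.H209.EPX

section rep

variable (F : Type) [Field F]

/-- the representation of dimension 27 over the algebraic closure -/
noncomputable def Θ : Zgrp F →* Module.End (AlgebraicClosure F) (I27 → AlgebraicClosure F) :=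
  ((Matrix.toLinAlgEquiv' : Matrix I27 I27 (AlgebraicClosure F) ≃ₐ[AlgebraicClosure F] _) :
    Matrix I27 I27 (AlgebraicClosure F) →* _).comp
    (((RingHom.mapMatrix (algebraMap F (AlgebraicClosure F)) :
      Matrix I27 I27 F →+* Matrix I27 I27 (AlgebraicClosure F)) :
      Matrix I27 I27 F →* Matrix I27 I27 (AlgebraicClosure F)).comp ((Units.coeHom _).comp (Zgrp F).subtype))

theorem Θ_injective : Function.Injective (Θ F) :=
  (Matrix.toLinAlgEquiv' (R := AlgebraicClosure F) (n := I27)).injective.comp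
    ((Matrix.map_injective (algebraMap F (AlgebraicClosure F)).injective).comp
      (Units.val_injective.comp Subtype.val_injective))

theorem finrank_W : finrank (AlgebraicClosure F) (I27 → AlgebraicClosure F) = 27 := RowE6.finrank_27 _

end rep

theorem cast_ne {F : Type} [Field F] {n : ℕ} (h : (n : F) ≠ 0) : (n : AlgebraicClosure F) ≠ 0 := by
  intro h1
  apply h
  apply (algebraMap F (AlgebraicClosure F)).injective
  rw [map_natCast, h1, map_zero]

/-- **one embedding** -/
theorem no_one {F : Type} [Field F] {T : Type*} [Group T] {P : Subgroup T} [Finite P] (hP : Fused P) {r : ℕ}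
    (hr : r.Coprime 3) (hPr : ∀ x ∈ P, x ^ r = 1) (hc : 29 ≤ Nat.card P) (hF : (Nat.card P : F) ≠ 0)
    (φ : T →* chevE6.group F) (h1 : Function.Injective φ) : False := by
  have hPr' : ∀ x : P, x ^ r = 1 := fun x => Subtype.ext (hPr x x.2)
  have hPc : ∀ x y : P, x * y = y * x := fun x y => Subtype.ext (hP.comm x x.2 y y.2)
  have hk := RowE6.ker3 F
  obtain ⟨ψ, hψ⟩ := exists_hom hk hr hPr' hPc (φ.comp P.subtype) (fun x => ad_surjective _)
  have hψi : Function.Injective ψ := by
    intro x y hxy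
    have h2 := congrArg (ad F) hxy
    rw [hψ, hψ] at h2
    exact Subtype.ext (h1 h2)
  have hA := fused_range hk hr hP hPr φ (fun g => ad_surjective _) ψ hψ
  have hcA : Nat.card ψ.range = Nat.card P := (Nat.card_congr (MonoidHom.ofInjective hψi).toEquiv).symm
  haveI : Finite ψ.range := Finite.of_equiv _ (MonoidHom.ofInjective hψi).toEquiv
  have h2 := triv_of_small (Θ F) hA (by rw [hcA]; exact cast_ne hF) (by rw [hcA, finrank_W]; omega)
  have h3 : ∀ x : P, x = 1 := by
    intro x
    have h4 := h2 ⟨ψ x, x, rfl⟩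
    have h5 : ψ x = 1 := Θ_injective F (h4.trans (map_one _).symm)
    exact hψi (h5.trans (map_one _).symm)
  have : Subsingleton P := ⟨fun x y => (h3 x).trans (h3 y).symm⟩
  rw [Nat.card_unique] at hc
  omega

/-- **two commuting embeddings** -/
theorem no_two {F : Type} [Field F] {T : Type*} [Group T] {P : Subgroup T} [Finite P] (hP : Fused P) {r : ℕ}
    (hr : r.Coprime 3) (hPr : ∀ x ∈ P, x ^ r = 1) (hc : 16 ≤ Nat.card P) (hF : (Nat.card P : F) ≠ 0)
    (φ φ' : T →* chevE6.group F) (h1 : Function.Injective φ) (h1' : Function.Injective φ')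
    (hcm : ∀ x y, φ x * φ' y = φ' y * φ x) : False := by
  have hPr' : ∀ x : P, x ^ r = 1 := fun x => Subtype.ext (hPr x x.2)
  have hPc : ∀ x y : P, x * y = y * x := fun x y => Subtype.ext (hP.comm x x.2 y y.2)
  have hk := RowE6.ker3 F
  obtain ⟨ψ, hψ⟩ := exists_hom hk hr hPr' hPc (φ.comp P.subtype) (fun x => ad_surjective _)
  have hψi : Function.Injective ψ := by
    intro x y hxy
    have h2 := congrArg (ad F) hxy
    rw [hψ, hψ] at h2
    exact Subtype.ext (h1 h2)
  have hA := fused_range hk hr hP hPr φ (fun g => ad_surjective _) ψ hψ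
  have hcA : Nat.card ψ.range = Nat.card P := (Nat.card_congr (MonoidHom.ofInjective hψi).toEquiv).symm
  haveI : Finite ψ.range := Finite.of_equiv _ (MonoidHom.ofInjective hψi).toEquiv
  -- the centralizer of `A`
  let C : Subgroup (Zgrp F) := Subgroup.centralizer (ψ.range : Set (Zgrp F))
  have hC : ∀ y : Zgrp F, (∃ g, ad F y = φ' g) → y ∈ C := by
    rintro y ⟨g, hg⟩
    rw [Subgroup.mem_centralizer_iff]
    rintro _ ⟨x, rfl⟩
    have h2 : y * ψ x * y⁻¹ = ψ x := by
      apply unique hk hr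
      · rw [conj_pow, ← map_pow, hPr', map_one, mul_one, mul_inv_cancel]
      · rw [← map_pow, hPr', map_one]
      · rw [map_mul, map_mul, map_inv, hg, hψ]
        change φ' g * φ x * (φ' g)⁻¹ = φ x
        rw [← hcm, mul_inv_cancel_right]
    exact (mul_inv_eq_iff_eq_mul.1 h2).symm
  let π' : C →* chevE6.group F := (ad F).comp C.subtype
  have hk' : Lift.Ker3 π' := by
    intro z hz
    obtain ⟨h2, h3⟩ := hk z hz
    exact ⟨fun x => Subtype.ext (h2 x), Subtype.ext h3⟩
  have hl' : ∀ g, ∃ y, π' y = φ' g := by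
    intro g
    obtain ⟨y, hy⟩ := ad_surjective (φ' g)
    exact ⟨⟨y, hC y ⟨g, hy⟩⟩, hy⟩
  obtain ⟨ψ', hψ'⟩ := exists_hom hk' hr hPr' hPc (φ'.comp P.subtype) (fun x => hl' _)
  have hψi' : Function.Injective ψ' := by
    intro x y hxy
    have h2 := congrArg π' hxy
    rw [hψ', hψ'] at h2
    exact Subtype.ext (h1' h2)
  have hB := fused_range hk' hr hP hPr φ' hl' ψ' hψ'
  have hcB : Nat.card ψ'.range = Nat.card P := (Nat.card_congr (MonoidHom.ofInjective hψi').toEquiv).symm
  haveI : Finite ψ'.range := Finite.of_equiv _ (MonoidHom.ofInjective hψi').toEquiv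
  have hnt : ∃ a : ψ.range, Θ F a ≠ 1 := by
    by_contra hcon
    push Not at hcon
    have h3 : ∀ x : P, x = 1 := by
      intro x
      have h4 := hcon ⟨ψ x, x, rfl⟩
      have h5 : ψ x = 1 := Θ_injective F (h4.trans (map_one _).symm)
      exact hψi (h5.trans (map_one _).symm)
    have : Subsingleton P := ⟨fun x y => (h3 x).trans (h3 y).symm⟩
    rw [Nat.card_unique] at hc
    omega
  have h2 := triv_of_comm (Θ F) hA (by rw [hcA]; exact cast_ne hF) hnt C.subtype (fun c a ha =>
    ((Subgroup.mem_centralizer_iff.1 c.2) a ha).symm) hB (by rw [hcB]; exact cast_ne hF)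
    (by rw [hcA, hcB, finrank_W]; omega)
  have h3 : ∀ x : P, x = 1 := by
    intro x
    have h4 := h2 ⟨ψ' x, x, rfl⟩
    have h5 : ((ψ' x : C) : Zgrp F) = 1 := Θ_injective F (h4.trans (map_one _).symm)
    exact hψi' ((Subtype.ext h5 : ψ' x = 1).trans (map_one _).symm)
  have : Subsingleton P := ⟨fun x y => (h3 x).trans (h3 y).symm⟩
  rw [Nat.card_unique] at hc
  omega

/-- `T` embeds into `E₆(F)`, `n ≠ 0` in `F` -/
def InE6n (n : ℕ) (T : Type*) [Group T] : Prop :=
  ∃ (F : Type) (_ : Field F), (n : F) ≠ 0 ∧ ∃ f : T →* chevE6.group F, Function.Injective f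

section

variable {T : Type*} [Group T] {n : ℕ}

theorem InE6n.mono {S : Type*} [Group S] (h : InE6n n T) (f : S →* T) (hf : Function.Injective f) : InE6n n S := by
  obtain ⟨F, i1, ho, g, hg⟩ := h
  exact ⟨F, i1, ho, g.comp f, hg.comp hf⟩

theorem inE6n_e6 {F : Type} [Field F] (ho : (n : F) ≠ 0) (e : T ≃* chevE6.group F) : InE6n n T :=
  ⟨F, inferInstance, ho, e.toMonoidHom, e.injective⟩

theorem inE6n_f4 {F : Type} [Field F] (ho : (n : F) ≠ 0) (e : T ≃* chevF4.group F) : InE6n n T :=
  ⟨F, inferInstance, ho, (H129.FE.toE6 F).comp e.toMonoidHom, (H129.FE.toE6_injective F).comp e.injective⟩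

theorem inE6n_tw {F : Type} [Field F] (ho : (n : F) ≠ 0) {q : ℕ} (e : T ≃* twistedE6 F q) : InE6n n T := by
  have hle : twistedE6 F q ≤ chevE6.group F := H351.SpSix.genSubgroup_le H351.SpSix.IdealE.lac_E6.inList _
  exact ⟨F, inferInstance, ho, (Subgroup.inclusion hle).comp e.toMonoidHom,
    (Subgroup.inclusion_injective hle).comp e.injective⟩

/-- the socle `N ≅ T ^ k` -/
theorem InE6n.pi {G : Type*} [Group G] (h : InE6n n G) {N : Subgroup G} {k : ℕ} (e : N ≃* (Fin k → T)) :
    InE6n n (Fin k → T) :=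
  h.mono (N.subtype.comp e.symm.toMonoidHom) (Subtype.val_injective.comp e.symm.injective)

/-- **no `T ^ k`, `k ≥ 2`** -/
theorem InE6n.no_pow {k : ℕ} (hk : 2 ≤ k) {P : Subgroup T} [Finite P] (h : InE6n (Nat.card P) (Fin k → T))
    (hP : Fused P) {r : ℕ} (hr : r.Coprime 3) (hPr : ∀ x ∈ P, x ^ r = 1) (hc : 16 ≤ Nat.card P) : False := by
  classical
  obtain ⟨F, i1, hF, f, hf⟩ := h
  have hne : (⟨0, by omega⟩ : Fin k) ≠ ⟨1, by omega⟩ := by
    intro h
    have := congrArg Fin.val h
    simp at this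
  refine no_two hP hr hPr hc hF (f.comp (MonoidHom.mulSingle (fun _ : Fin k => T) ⟨0, by omega⟩))
    (f.comp (MonoidHom.mulSingle (fun _ : Fin k => T) ⟨1, by omega⟩))
    (hf.comp (Pi.mulSingle_injective (M := fun _ : Fin k => T) _))
    (hf.comp (Pi.mulSingle_injective (M := fun _ : Fin k => T) _)) fun x y => ?_
  have h1 : Commute (MonoidHom.mulSingle (fun _ : Fin k => T) ⟨0, by omega⟩ x)
      (MonoidHom.mulSingle (fun _ : Fin k => T) ⟨1, by omega⟩ y) :=
    Pi.mulSingle_commute (f := fun _ : Fin k => T) hne x y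
  exact (h1.map f).eq

/-- **no `T`** -/
theorem InE6n.no_one {P : Subgroup T} [Finite P] (h : InE6n (Nat.card P) T)
    (hP : Fused P) {r : ℕ} (hr : r.Coprime 3) (hPr : ∀ x ∈ P, x ^ r = 1) (hc : 29 ≤ Nat.card P) : False := by
  obtain ⟨F, i1, hF, f, hf⟩ := h
  exact EPX.no_one hP hr hPr hc hF f hf

end

end Cfsg.Agent.H223.EPX
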