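import Cfsg.Agent.H887.RIM.AT2
import Cfsg.Agent.H898.EPX.LSk
import Cfsg.Agent.H318.Four.RowE6

/-!
# S5745: two commuting fused abelian `r`-subgroups on the module of dimension 27 (helper223)

* `Fused A` : `A` is abelian, the nontrivial elements of `A` are conjugate by elements of `N(A)`;
* `triv_of_small` : `A` acts trivially on a module of dimension `< |A| - 1`;
* `triv_of_comm` : `A`, `B` fused and `N(A)`, `N(B)` ... commuting: one of them is trivial if `dim W + 3 < |A| + |B|`;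
* `no_two` : `T` with a fused `P`, `|P| ≥ 16` prime to `3` and to the characteristic: no two commuting embeddings of `T` into
  `E₆(F)`.
-/

set_option autoImplicit false
set_option linter.unusedSectionVars false
set_option linter.style.haveILetI false

namespace Cfsg.Agent.H223.EPX

open Module Cfsg.Agent.H887.RIM Cfsg.Agent.H912.Bd

universe u

/-- the nontrivial elements of the abelian subgroup `A` are fused in `N(A)` -/
structure Fused {L : Type*} [Group L] (A : Subgroup L) : Prop where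
  comm : ∀ a ∈ A, ∀ b ∈ A, a * b = b * a
  tr : ∀ a ∈ A, a ≠ 1 → ∀ b ∈ A, b ≠ 1 → ∃ g : L, (∀ c ∈ A, g * c * g⁻¹ ∈ A) ∧ g * a * g⁻¹ = b

section lin

variable {K : Type u} [Field K] {W : Type u} [AddCommGroup W] [Module K W] {L : Type*} [Group L]
  (ρ : L →* Module.End K W) {A : Subgroup L} [FiniteDimensional K W] [IsAlgClosed K] [Finite A]

theorem triv_of_small (hA : Fused A) (hN : (Nat.card A : K) ≠ 0) (hd : finrank K W + 1 < Nat.card A) (a : A) :
    ρ a = 1 := by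
  by_contra h
  have h1 := at1' ρ hA.comm hN hA.tr ⟨a, h⟩
  omega

theorem wc_le (hA : Fused A) (hN : (Nat.card A : K) ≠ 0) (hnt : ∃ a : A, ρ a ≠ 1) (χ : A →* Kˣ) :
    finrank K (wc ρ A χ) + Nat.card A ≤ finrank K W + 2 := by
  classical
  haveI : Fintype (A →* Kˣ) := Fintype.ofFinite _
  have hA' : ∀ a b : A, a * b = b * a := fun a b => Subtype.ext (hA.comm a a.2 b b.2)
  have h1 := card_char (K := K) hA' hN
  have h2 : iSupIndep (wc ρ A) := (indep_wt ρ hA.comm hN pow_card_eq).comp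
    (f := fun (χ : A →* Kˣ) (a : A) => (χ a : K)) (by
      intro χ ψ h
      ext a
      exact congrFun h a)
  have h3 := sum_finrank_le h2
  have h4 : ∑ ψ ∈ (Finset.univ.erase χ).erase 1, 1 ≤ ∑ ψ ∈ (Finset.univ.erase χ).erase 1, finrank K (wc ρ A ψ) := by
    refine Finset.sum_le_sum fun ψ hψ => ?_
    rw [Nat.one_le_iff_ne_zero, Ne, Submodule.finrank_eq_zero]
    exact wc_ne_bot_of_trans ρ hA.comm hN hA.tr hnt ψ (Finset.mem_erase.1 hψ).1
  have h5 : ∑ ψ ∈ (Finset.univ.erase χ).erase 1, finrank K (wc ρ A ψ) ≤ ∑ ψ ∈ Finset.univ.erase χ, finrank K (wc ρ A ψ) :=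
    Finset.sum_le_sum_of_subset (Finset.erase_subset _ _)
  have h6 := Finset.add_sum_erase Finset.univ (fun ψ => finrank K (wc ρ A ψ)) (Finset.mem_univ χ)
  have h7 : Nat.card A ≤ ((Finset.univ.erase χ).erase 1).card + 2 := by
    have h8 := Finset.card_erase_add_one (Finset.mem_univ χ)
    have h9 := Finset.pred_card_le_card_erase (s := Finset.univ.erase χ) (a := (1 : A →* Kˣ))
    rw [Finset.card_univ, ← Nat.card_eq_fintype_card, h1] at h8
    omega
  rw [Finset.sum_const, smul_eq_mul, mul_one] at h4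
  omega

/-- **two commuting fused subgroups** -/
theorem triv_of_comm (hA : Fused A) (hN : (Nat.card A : K) ≠ 0) (hnt : ∃ a : A, ρ a ≠ 1) {C : Type*} [Group C]
    (j : C →* L) (hj : ∀ c : C, ∀ a ∈ A, j c * a = a * j c) {B : Subgroup C} [Finite B] (hB : Fused B)
    (hNB : (Nat.card B : K) ≠ 0) (hd : finrank K W + 3 < Nat.card A + Nat.card B) (b : B) : ρ (j b) = 1 := by
  classical
  have h2 : ⨆ χ, wc ρ A χ = ⊤ := by
    have h1 := (wc_bij ρ hA.comm hN).2
    rw [← LinearMap.range_eq_top, DirectSum.range_coeLinearMap] at h1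
    exact h1
  have h3 : ∀ χ, wc ρ A χ ≤ LinearMap.ker (ρ (j b) - 1) := by
    intro χ w hw
    have hinv : ∀ c : C, ∀ w ∈ wc ρ A χ, (ρ.comp j) c w ∈ wc ρ A χ := by
      intro c w hw
      exact map_mem_wt ρ (hj c) hw
    have h4 := wc_le ρ hA hN hnt χ
    have hd' : finrank K (wc ρ A χ) + 1 < Nat.card B := by omega
    have h5 := triv_of_small (H898.EPX.rs (ρ.comp j) (wc ρ A χ) hinv) hB hNB hd' b
    have h6 := congrArg Subtype.val (LinearMap.congr_fun h5 ⟨w, hw⟩)
    rw [LinearMap.mem_ker, LinearMap.sub_apply, Module.End.one_apply, sub_eq_zero]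
    exact h6
  have h4 : LinearMap.ker (ρ (j b) - 1) = ⊤ := by
    rw [eq_top_iff, ← h2]
    exact iSup_le h3
  exact sub_eq_zero.1 (LinearMap.ker_eq_top.1 h4)

end lin

section lift

open Cfsg.Agent.H318.Four

variable {L K : Type*} [Group L] [Group K] {π : L →* K} {r : ℕ}

theorem unique (hk : Lift.Ker3 π) (hr : r.Coprime 3) {s t : L} (hs : s ^ r = 1) (ht : t ^ r = 1) (h : π s = π t) :
    s = t := by
  have hz : π (s⁻¹ * t) = 1 := by rw [map_mul, map_inv, h, inv_mul_cancel]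
  obtain ⟨z, hzz⟩ : ∃ z, z = s⁻¹ * t := ⟨_, rfl⟩
  have ht' : t = s * z := by rw [hzz]; group
  rw [← hzz] at hz
  obtain ⟨h1, h2⟩ := hk z hz
  have h3 : z ^ r = 1 := by
    have h4 : (s * z) ^ r = s ^ r * z ^ r := (show Commute s z from h1 s).mul_pow r
    rw [ht', h4, hs, one_mul] at ht
    exact ht
  have h5 : orderOf z ∣ 1 := by
    rw [← hr]
    exact Nat.dvd_gcd (orderOf_dvd_of_pow_eq_one h3) (orderOf_dvd_of_pow_eq_one h2)
  have h6 : z = 1 := by
    rw [← orderOf_eq_one_iff]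
    exact Nat.dvd_one.1 h5
  rw [ht', h6, mul_one]

theorem exists_lift (hk : Lift.Ker3 π) (hr : r.Coprime 3) {y : L} (hx : π y ^ r = 1) :
    ∃ s : L, s ^ r = 1 ∧ π s = π y := by
  obtain ⟨m, hm1, hm2⟩ := Nat.chineseRemainder hr 1 0
  have h1 : π (y ^ r) = 1 := by rw [map_pow, hx]
  have h2 := (hk _ h1).2
  refine ⟨y ^ m, ?_, ?_⟩
  · obtain ⟨c, hc⟩ : 3 ∣ m := (Nat.modEq_zero_iff_dvd).1 hm2
    rw [← pow_mul, mul_comm m r, pow_mul, hc, pow_mul, h2, one_pow]
  · rw [map_pow]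
    have h3 : orderOf (π y) ∣ r := orderOf_dvd_of_pow_eq_one hx
    have h4 : m ≡ 1 [MOD orderOf (π y)] := hm1.of_dvd h3
    rw [pow_eq_pow_iff_modEq.2 h4, pow_one]

theorem exists_hom (hk : Lift.Ker3 π) (hr : r.Coprime 3) {E : Type*} [Group E] (hE : ∀ x : E, x ^ r = 1)
    (hc : ∀ x y : E, x * y = y * x) (φ : E →* K) (hl : ∀ x, ∃ y, π y = φ x) :
    ∃ ψ : E →* L, ∀ x, π (ψ x) = φ x := by
  have hex : ∀ x : E, ∃ s : L, s ^ r = 1 ∧ π s = φ x := by
    intro x
    obtain ⟨y, hy⟩ := hl x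
    obtain ⟨s, hs, hsy⟩ := exists_lift hk hr (y := y) (by rw [hy, ← map_pow, hE, map_one])
    exact ⟨s, hs, by rw [hsy, hy]⟩
  choose s hs hsφ using hex
  have hcm : ∀ x y, s x * s y = s y * s x := by
    intro x y
    have h1 : s x * s y * (s x)⁻¹ = s y := by
      apply unique hk hr _ (hs y)
      · rw [map_mul, map_mul, map_inv, hsφ, hsφ, ← map_mul, hc, map_mul, mul_inv_cancel_right]
      · rw [conj_pow, hs, mul_one, mul_inv_cancel]
    exact mul_inv_eq_iff_eq_mul.1 h1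
  refine ⟨MonoidHom.mk' s fun x y => ?_, hsφ⟩
  apply unique hk hr (hs _)
  · rw [(show Commute (s x) (s y) from hcm x y).mul_pow, hs, hs, one_mul]
  · rw [hsφ, map_mul, map_mul, hsφ, hsφ]

theorem fused_range (hk : Lift.Ker3 π) (hr : r.Coprime 3) {T : Type*} [Group T] {P : Subgroup T} (hP : Fused P)
    (hPr : ∀ x ∈ P, x ^ r = 1) (φ : T →* K) (hl : ∀ g, ∃ y, π y = φ g) (ψ : P →* L)
    (hψ : ∀ x, π (ψ x) = φ x) : Fused ψ.range := by
  have hPr' : ∀ x : P, x ^ r = 1 := fun x => Subtype.ext (hPr x x.2)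
  refine ⟨?_, ?_⟩
  · rintro _ ⟨x, rfl⟩ _ ⟨y, rfl⟩
    rw [← map_mul, ← map_mul]
    congr 1
    exact Subtype.ext (hP.comm x x.2 y y.2)
  · rintro _ ⟨x, rfl⟩ hx _ ⟨y, rfl⟩ hy
    have hx' : (x : T) ≠ 1 := fun h => hx (by rw [show x = 1 from Subtype.ext h, map_one])
    have hy' : (y : T) ≠ 1 := fun h => hy (by rw [show y = 1 from Subtype.ext h, map_one])
    obtain ⟨g, hg, hgx⟩ := hP.tr x x.2 hx' y y.2 hy'
    obtain ⟨g', hg'⟩ := hl g
    have key : ∀ c : P, g' * ψ c * g'⁻¹ = ψ ⟨g * c * g⁻¹, hg c c.2⟩ := by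
      intro c
      apply unique hk hr
      · rw [conj_pow, ← map_pow, hPr', map_one, mul_one, mul_inv_cancel]
      · rw [← map_pow, hPr', map_one]
      · rw [map_mul, map_mul, map_inv, hg', hψ, hψ, ← map_inv, ← map_mul, ← map_mul]
    refine ⟨g', ?_, ?_⟩
    · rintro _ ⟨c, rfl⟩
      rw [key]
      exact ⟨_, rfl⟩
    · rw [key]
      congr 1
      exact Subtype.ext hgx

end lift

end Cfsg.Agent.H223.EPX
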