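import Cfsg.Agent.H223.EPX.ESix
import Cfsg.Agent.H235.TitsRow

/-!
# S5745: no `T ^ k`, `k ≥ 2`, `T` the Tits group, in `F₄(q)`, `E₆(q)`, `²E₆(q)`, `q` prime to `5` (helper223)
-/

set_option autoImplicit false
set_option linter.unusedSectionVars false
set_option linter.style.haveILetI false

namespace Cfsg.Agent.H223.EPX

open Cfsg Cfsg.Lie
open Cfsg.Agent.H209.EPX

theorem fused_sylow {T : Type*} [Group T] [Finite T] {p : ℕ} [Fact p.Prime] (P : Sylow p T)
    (hab : ∀ a ∈ P, ∀ b ∈ P, a * b = b * a) (hexp : ∀ x ∈ P, x ^ p = 1)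
    (hone : ∀ x y : T, orderOf x = p → orderOf y = p → IsConj x y) : Fused (P : Subgroup T) := by
  refine ⟨hab, fun a ha ha1 b hb hb1 => ?_⟩
  have h1 : orderOf a = p := orderOf_eq_prime (hexp a ha) ha1
  have h2 : orderOf b = p := orderOf_eq_prime (hexp b hb) hb1
  obtain ⟨c, hc⟩ := isConj_iff.1 (hone a b h1 h2)
  haveI : IsMulCommutative P := ⟨⟨fun x y => Subtype.ext (hab x x.2 y y.2)⟩⟩
  obtain ⟨n, hn, hn2⟩ := P.conj_eq_normalizer_conj_of_mem a c⁻¹ ha (by rw [inv_inv, hc]; exact hb)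
  rw [inv_inv, hc] at hn2
  refine ⟨n⁻¹, fun d hd => ?_, ?_⟩
  · exact (Subgroup.mem_normalizer_iff.1 (inv_mem hn) d).1 hd
  · rw [inv_inv, ← hn2]

/-- the Sylow 5-subgroup of the Tits group -/
theorem tits_fused {T : Type*} [Group T] [Finite T] (hT : IsoTits T) :
    ∃ P : Subgroup T, Fused P ∧ Nat.card P = 25 ∧ ∀ x ∈ P, x ^ 5 = 1 := by
  haveI : Fact (Nat.Prime 5) := ⟨Nat.prime_five⟩
  have hf := H235.TitsRow.facts hT
  obtain ⟨P⟩ : Nonempty (Sylow 5 T) := inferInstance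
  have hc : Nat.card P = 25 := by
    obtain ⟨n, hn⟩ := (IsPGroup.iff_card).1 P.isPGroup'
    have h1 := P.card_mul_index
    have h2 := P.not_dvd_index
    rw [hf.card, hn] at h1
    rw [hn]
    have h3 : n ≤ 10 := by
      by_contra hcon
      have h4 : 5 ^ 11 ≤ 5 ^ n := Nat.pow_le_pow_right (by norm_num) (by omega)
      have h5 : 5 ^ n ≤ 5 ^ n * P.index := Nat.le_mul_of_pos_right _ (Nat.pos_of_ne_zero fun h => by
        rw [h, mul_zero] at h1
        omega)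
      rw [h1] at h5
      norm_num at h4
      omega
    interval_cases n <;> norm_num at h1 ⊢ <;> omega
  have hexp : ∀ x ∈ P, x ^ 5 = 1 := by
    intro x hx
    apply hf.exp
    have h1 : (⟨x, hx⟩ : P) ^ Nat.card P = 1 := pow_card_eq_one'
    rw [hc] at h1
    exact congrArg Subtype.val h1
  have hab : ∀ a ∈ P, ∀ b ∈ P, a * b = b * a := by
    have h1 : Nat.card P = 5 ^ 2 := by rw [hc]; norm_num
    have h2 := IsPGroup.commutative_of_card_eq_prime_sq h1
    intro a ha b hb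
    exact congrArg Subtype.val (h2 ⟨a, ha⟩ ⟨b, hb⟩)
  exact ⟨P, fused_sylow P hab hexp hf.one, hc, hexp⟩

theorem InE6n.no_tits {T : Type*} [Group T] [Finite T] (hT : IsoTits T) {k : ℕ} (hk : 2 ≤ k)
    (h : InE6n 5 (Fin k → T)) : False := by
  obtain ⟨P, hP, hc, h5⟩ := tits_fused hT
  have h' : InE6n (Nat.card P) (Fin k → T) := by
    obtain ⟨F, i1, hF, f, hf⟩ := h
    refine ⟨F, i1, ?_, f, hf⟩
    rw [hc]
    have : ((25 : ℕ) : F) = ((5 : ℕ) : F) * ((5 : ℕ) : F) := by norm_num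
    rw [this]
    exact mul_ne_zero hF hF
  exact h'.no_pow hk hP (r := 5) (by norm_num) h5 (by omega)

theorem InE6n.eps {G : Type} [Group G] [Finite G] (h : InE6n 5 G) {N : Subgroup G} {T : Type} [Group T]
    {k : ℕ} (e : N ≃* (Fin k → T)) (hk : 2 ≤ k) (hT : IsoTits T) : False := by
  classical
  have hT' : Finite T := by
    haveI : Finite (Fin k → T) := Finite.of_equiv _ e.toEquiv
    exact Finite.of_injective (fun t : T => (Pi.mulSingle ⟨0, by omega⟩ t : Fin k → T))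
      (Pi.mulSingle_injective (M := fun _ : Fin k => T) _)
  exact (h.pi e).no_tits hT hk

theorem five_ne {F : Type*} [Field F] {p : ℕ} [CharP F p] (hp : p.Prime) (h5 : p ≠ 5) : ((5 : ℕ) : F) ≠ 0 := by
  intro h
  rw [CharP.cast_eq_zero_iff F p] at h
  exact h5 ((Nat.prime_dvd_prime_iff_eq hp Nat.prime_five).1 h)

/-- **`F₄(q)`** -/
theorem f4_tits {F : Type} [Field F] [Fintype F] {p : ℕ} [hp : Fact p.Prime] [CharP F p] (h5 : p ≠ 5)
    {N : Subgroup ↥(chevF4.group F)} {T : Type} [Group T] {k : ℕ} (e : N ≃* (Fin k → T)) (hk : 2 ≤ k)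
    (hT : IsoTits T) : False :=
  InE6n.eps (inE6n_f4 (five_ne (F := F) hp.out h5) (MulEquiv.refl _)) e hk hT

/-- **`E₆(q)`** -/
theorem e6_tits {F : Type} [Field F] [Fintype F] {p : ℕ} [hp : Fact p.Prime] [CharP F p] (h5 : p ≠ 5)
    {N : Subgroup ↥(chevE6.group F)} {T : Type} [Group T] {k : ℕ} (e : N ≃* (Fin k → T)) (hk : 2 ≤ k)
    (hT : IsoTits T) : False :=
  InE6n.eps (inE6n_e6 (five_ne (F := F) hp.out h5) (MulEquiv.refl _)) e hk hT

/-- **`²E₆(q)`** -/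
theorem te6_tits {K : Type} [Field K] [Fintype K] {p q : ℕ} [hp : Fact p.Prime] [CharP K p] (h5 : p ≠ 5)
    {N : Subgroup ↥(twistedE6 K q)} {T : Type} [Group T] {k : ℕ} (e : N ≃* (Fin k → T)) (hk : 2 ≤ k)
    (hT : IsoTits T) : False :=
  InE6n.eps (inE6n_tw (five_ne (F := K) hp.out h5) (MulEquiv.refl _)) e hk hT

end Cfsg.Agent.H223.EPX
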